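import Cfsg.Agent.H960.KGV.Defs
import Cfsg.Agent.H450.FratMod
import Cfsg.Agent.H642.FongRed
import Cfsg.Agent.H642.SolvRank
import Cfsg.Agent.S3744
import Cfsg.Prelude.Def_CaseTheorems

/-!
# S4533 and S4532 from the main theorem `∀ n, Lt n` (helper126, task 2024 of helper960)

* `lt_of_injective` : a `p'`-group acting faithfully on an elementary abelian `p`-group `W ≠ 1` has fewer than `|W|` classes;
* `s4533` : `p`-complements and `p`-regular classes of a `p`-solvable group with `O_{p'} = 1`;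
* `s4532` : `l(B) < p ^ r` for blocks of `p`-solvable groups.
-/

set_option autoImplicit false
set_option linter.unusedSectionVars false

namespace Cfsg.Agent.H126.KG

open Cfsg Cfsg.Agent.H960.KGV Subgroup

universe u v

/-- conjugation with a linear equivalence -/
def cj {K : Type*} [Field K] {W V : Type*} [AddCommGroup W] [Module K W] [AddCommGroup V] [Module K V]
    (e : W ≃ₗ[K] V) : (W ≃ₗ[K] W) →* (V ≃ₗ[K] V) where
  toFun f := (e.symm.trans f).trans e
  map_one' := by
    ext v
    exact e.apply_symm_apply v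
  map_mul' f g := by
    ext v
    change e (f (g (e.symm v))) = e (f (e.symm (e (g (e.symm v)))))
    rw [e.symm_apply_apply]

theorem cj_injective {K : Type*} [Field K] {W V : Type*} [AddCommGroup W] [Module K W] [AddCommGroup V] [Module K V]
    (e : W ≃ₗ[K] V) : Function.Injective (cj e) := by
  intro f g h
  ext w
  have h1 := LinearEquiv.congr_fun h (e w)
  change e (f (e.symm (e w))) = e (g (e.symm (e w))) at h1
  rw [e.symm_apply_apply] at h1
  exact e.injective h1

/-- the main theorem for abstract groups -/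
theorem lt_of_injective (hA : ∀ n, Lt n) {p : ℕ} [Fact p.Prime] {T : Type u} [Group T] [Finite T] {W : Type v}
    [AddCommGroup W] [Module (ZMod p) W] [Finite W] [Nontrivial W] (ρ : T →* (W ≃ₗ[ZMod p] W))
    (hρ : Function.Injective ρ) (hT : ¬ p ∣ Nat.card T) : Nat.card (ConjClasses T) < Nat.card W := by
  have hfd : Module.Finite (ZMod p) W := Module.Finite.of_finite
  let e : W ≃ₗ[ZMod p] (Fin (Module.finrank (ZMod p) W) → ZMod p) := (Module.finBasis (ZMod p) W).equivFun
  have hinj : Function.Injective ((cj e).comp ρ) := (cj_injective e).comp hρ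
  have h1 : Nat.card (ConjClasses T) = Nat.card (ConjClasses ((cj e).comp ρ).range) :=
    H540.ClassNum.card_conjClasses_congr (MonoidHom.ofInjective hinj)
  have h2 : Nat.card W = Nat.card (Fin (Module.finrank (ZMod p) W) → ZMod p) := Nat.card_congr e.toEquiv
  have h3 : Nat.card T = Nat.card ((cj e).comp ρ).range := Nat.card_congr (MonoidHom.ofInjective hinj).toEquiv
  rw [h1, h2]
  refine hA _ p _ rfl ?_ _ (by rw [← h3]; exact hT)
  rw [← h2]
  exact Finite.one_lt_card

section pSolvable

variable {X : Type u} [Group X] [Finite X] [Nontrivial X] {p : ℕ} [Fact p.Prime]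

/-- the order of a homomorphic image of exponent `p` -/
theorem card_le {P : Type u} [Group P] [Finite P] {r : ℕ} (hr : SectionalPRankLE p r P) {V : Type v} [AddCommGroup V]
    [Module (ZMod p) V] (π : P →* Multiplicative V) (hπ : Function.Surjective π) : Nat.card V ≤ p ^ r := by
  let f : (⊤ : Subgroup P) →* Multiplicative V := π.comp (⊤ : Subgroup P).subtype
  have hf : Function.Surjective f := fun v => by
    obtain ⟨x, rfl⟩ := hπ v
    exact ⟨⟨x, mem_top x⟩, rfl⟩
  have e : ((⊤ : Subgroup P) ⧸ f.ker) ≃* Multiplicative V := QuotientGroup.quotientKerEquivOfSurjective f hf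
  have h1 := hr ⊤ f.ker ⊤ ⟨⟨fun a b => Subtype.ext (e.injective (by
    show e (a * b) = e (b * a)
    rw [map_mul, map_mul, mul_comm]))⟩⟩ (fun a _ => e.injective (by
    rw [map_pow, map_one]
    apply Multiplicative.toAdd.injective
    rw [toAdd_pow, toAdd_one]
    rw [← Nat.cast_smul_eq_nsmul (ZMod p), ZMod.natCast_self, zero_smul]))
  rw [card_top, Nat.card_congr e.toEquiv] at h1
  exact h1

/-- a nontrivial `p`-group has sectional rank at least one -/
theorem one_lt_pow {P : Type u} [Group P] [Finite P] (hP : IsPGroup p P) (hP1 : Nontrivial P) {r : ℕ}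
    (hr : SectionalPRankLE p r P) : 1 < p ^ r := by
  have hp : p.Prime := Fact.out
  obtain ⟨n, hn0, hn⟩ := hP.nontrivial_iff_card.1 hP1
  obtain ⟨z, hz⟩ := exists_prime_orderOf_dvd_card' (G := P) p (by rw [hn]; exact dvd_pow_self p hn0.ne')
  have hc : ∀ a b : zpowers z, a * b = b * a := by
    rintro ⟨_, i, rfl⟩ ⟨_, j, rfl⟩
    exact Subtype.ext ((Commute.refl z).zpow_zpow i j).eq
  have hpw : ∀ a : zpowers z, a ^ p = 1 := by
    intro a
    have h1 : Nat.card (zpowers z) = p := by rw [Nat.card_zpowers, hz]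
    rw [← h1]
    exact pow_card_eq_one'
  have h1 := hr (zpowers z) ⊥ ⊤ ⟨⟨fun a b => Subtype.ext (QuotientGroup.quotientBot.injective (by
    show QuotientGroup.quotientBot (a.1 * b.1) = QuotientGroup.quotientBot (b.1 * a.1)
    rw [map_mul, map_mul]
    exact hc _ _))⟩⟩ (fun a _ => QuotientGroup.quotientBot.injective (by
      rw [map_pow, map_one]
      exact hpw _))
  rw [card_top, ← Nat.card_congr (QuotientGroup.quotientBot (G := zpowers z)).symm.toEquiv, Nat.card_zpowers, hz] at h1
  exact hp.one_lt.trans_le h1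

/-- the class number of the subgroups of order prime to `p` -/
theorem class_lt (hA : ∀ n, Lt n) (hsolv : IsPSolvable p X) (hcore : pPrimeCore p X = ⊥) {r : ℕ}
    (hr : SectionalPRankLE p r ↥(pCore p X)) (T : Subgroup X) (hT : (Nat.card T).Coprime p) :
    Nat.card (ConjClasses T) < p ^ r := by
  have hp : p.Prime := Fact.out
  obtain ⟨V, i1, i2, i3, φ, π, hπ, -, hker⟩ := H450.FratMod.exists_module hsolv hcore
  have hpT : ¬ p ∣ Nat.card T := fun h => hp.one_lt.ne' (Nat.dvd_one.1 (hT ▸ Nat.dvd_gcd h dvd_rfl))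
  have hPp : IsPGroup p (pCore p X) := Lib.Cores.pCore_isPGroup p
  have hP1 : pCore p X ≠ ⊥ := by
    intro h
    have h1 := Lib.PSolvable.centralizer_pCore_le_of_pSolvable p hsolv hcore
    rw [h] at h1
    have h2 : centralizer ((⊥ : Subgroup X) : Set X) = ⊤ := by
      rw [eq_top_iff]
      intro g _
      rw [mem_centralizer_iff]
      intro y hy
      rw [SetLike.mem_coe, mem_bot] at hy
      rw [hy, one_mul, mul_one]
    rw [h2, top_le_iff] at h1
    obtain ⟨x, hx⟩ := exists_ne (1 : X)
    exact hx (by rw [← mem_bot, h1]; exact mem_top x)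
  have hinj : Function.Injective (φ.comp T.subtype) := by
    rw [injective_iff_map_eq_one]
    intro x hx
    have h1 : (x : X) ∈ pCore p X := by
      rw [← hker]
      exact hx
    obtain ⟨k, hk⟩ := hPp ⟨x, h1⟩
    have h2 : (x : X) ^ p ^ k = 1 := congrArg Subtype.val hk
    have h3 : x ^ p ^ k = 1 := Subtype.ext h2
    have h4 : orderOf x ∣ p ^ k := orderOf_dvd_of_pow_eq_one h3
    exact orderOf_eq_one_iff.1 (Nat.eq_one_of_dvd_coprimes (Nat.Coprime.pow_right k hT) (orderOf_dvd_natCard x) h4)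
  rcases subsingleton_or_nontrivial V with hV | hV
  · have hT1 : Nat.card T = 1 := by
      rw [Nat.card_eq_one_iff_unique]
      refine ⟨⟨fun a b => hinj ?_⟩, ⟨1⟩⟩
      ext v
      exact Subsingleton.elim _ _
    refine lt_of_le_of_lt H540.ClassNum.card_conjClasses_le_card ?_
    rw [hT1]
    exact one_lt_pow hPp ((Subgroup.nontrivial_iff_ne_bot _).2 hP1) hr
  · exact (lt_of_injective hA (φ.comp T.subtype) hinj hpT).trans_le (card_le hr π hπ)

/-- `p`-regular classes are met by a `p`-complement -/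
theorem regular_le {G : Type u} [Group G] [Finite G] (hsolv : IsPSolvable p G) :
    ∃ T : Subgroup G, (Nat.card T).Coprime p ∧
      Nat.card {C : ConjClasses G // ∃ g : G, ConjClasses.mk g = C ∧ ¬ p ∣ orderOf g} ≤ Nat.card (ConjClasses T) := by
  have hp : p.Prime := Fact.out
  obtain ⟨⟨T, hT1, hT2⟩, hconj, hin⟩ := S3744.result hsolv
  refine ⟨T, hT1, ?_⟩
  have hex : ∀ g : G, ¬ p ∣ orderOf g → ∃ t : T, IsConj (t : G) g := by
    intro g hg
    obtain ⟨H, hH1, hH2, x, hx⟩ := hin (zpowers g) (by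
      rw [Nat.card_zpowers, Nat.coprime_comm]
      exact hp.coprime_iff_not_dvd.2 hg)
    obtain ⟨y, rfl⟩ := hconj T H hT1 hT2 hH1 hH2
    have h1 : x * g * x⁻¹ ∈ T.map (MulAut.conj y).toMonoidHom := hx ⟨g, mem_zpowers g, rfl⟩
    obtain ⟨t, ht, hty⟩ := h1
    have hty' : y * t * y⁻¹ = x * g * x⁻¹ := hty
    refine ⟨⟨t, ht⟩, isConj_iff.2 ⟨x⁻¹ * y, ?_⟩⟩
    calc x⁻¹ * y * t * (x⁻¹ * y)⁻¹ = x⁻¹ * (y * t * y⁻¹) * x := by group
      _ = g := by rw [hty']; group
  let f : ConjClasses T → ConjClasses G := ConjClasses.map T.subtype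
  have hfin : Finite (ConjClasses T) := inferInstance
  refine le_trans (Nat.card_le_card_of_injective (β := Set.range f) (fun C => ⟨C.1, ?_⟩) ?_) ?_
  · obtain ⟨g, hg, hpg⟩ := C.2
    obtain ⟨t, ht⟩ := hex g hpg
    refine ⟨ConjClasses.mk t, ?_⟩
    rw [← hg]
    exact ConjClasses.mk_eq_mk_iff_isConj.2 ht
  · intro C D h
    exact Subtype.ext (congrArg (fun z : Set.range f => z.1) h)
  · exact Nat.card_le_card_of_surjective (Set.rangeFactorization f) Set.rangeFactorization_surjective

/-- **S4533** from the main theorem. -/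
theorem s4533 (hA : ∀ n, Lt n) {X : Type*} [Group X] [Finite X] [Nontrivial X] (p : ℕ) [Fact p.Prime]
    (hsolv : Cfsg.IsPSolvable p X) (hcore : Cfsg.pPrimeCore p X = ⊥) (r : ℕ)
    (hr : Cfsg.SectionalPRankLE p r ↥(Cfsg.pCore p X)) :
    (∀ T : Subgroup X, (Nat.card T).Coprime p → (∃ m : ℕ, T.index = p ^ m) → Nat.card (ConjClasses T) < p ^ r) ∧
      Nat.card {C : ConjClasses X // ∃ g : X, ConjClasses.mk g = C ∧ ¬ p ∣ orderOf g} < p ^ r := by
  refine ⟨fun T hT _ => class_lt hA hsolv hcore hr T hT, ?_⟩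
  obtain ⟨T, hT, hle⟩ := regular_le (p := p) hsolv
  exact hle.trans_lt (class_lt hA hsolv hcore hr T hT)

end pSolvable

/-! ### Blocks -/

section block

/-- the sectional rank of a subgroup -/
theorem sect_of_injective {A : Type u} {B : Type v} [Group A] [Group B] (f : A →* B) (hf : Function.Injective f)
    {p r : ℕ} (h : SectionalPRankLE p r B) : SectionalPRankLE p r A := by
  intro H N hN E hE hEp
  let e : H ≃* H.map f := H.equivMapOfInjective f hf
  let N' : Subgroup (H.map f) := N.map e.toMonoidHom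
  have hN' : N'.Normal := hN.map _ e.surjective
  let q : (H ⧸ N) ≃* ((H.map f) ⧸ N') := QuotientGroup.congr N N' e rfl
  have h1 := h (H.map f) N' (E.map q.toMonoidHom) ⟨⟨by
      rintro ⟨_, a, ha, rfl⟩ ⟨_, b, hb, rfl⟩
      apply Subtype.ext
      show q a * q b = q b * q a
      rw [← map_mul, ← map_mul]
      exact congrArg q (congrArg Subtype.val (hE.is_comm.comm ⟨a, ha⟩ ⟨b, hb⟩))⟩⟩ (by
      rintro _ ⟨a, ha, rfl⟩
      show q a ^ p = 1
      rw [← map_pow, hEp a ha, map_one])
  rwa [card_map_of_injective (f := q.toMonoidHom) q.injective] at h1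

/-- **S4532** from the main theorem. -/
theorem s4532 (hA : ∀ n, Lt n) {G : Type*} [Group G] [Finite G] (p : ℕ) [Fact p.Prime] (hsolv : Cfsg.IsPSolvable p G)
    (M : Ideal Cfsg.AlgInt) (hM : Cfsg.IsPModular p M) (B : Set (Cfsg.IrrCharacter G)) (hB : Cfsg.IsPBlock M B)
    (D : Subgroup G) (hD : Cfsg.IsDefectGroup p M B D) (hD1 : D ≠ ⊥) (r : ℕ) (hr : Cfsg.SectionalPRankLE p r D) :
    Cfsg.blockRank p B < p ^ r := by
  classical
  have hp : p.Prime := Fact.out
  obtain ⟨X, _, _, f, N, hN, _, θ, B', P, hf, hNdef, hinv, hB', hmem, ⟨e⟩, hrank⟩ :=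
    H642.FongRed.fong_reduction p M hM (Nat.card G) G le_rfl hsolv B hB D hD
  refine hrank.trans_lt ?_
  have hX : IsPSolvable p X := Lib.PSolvable.IsPSolvable_of_injective p hsolv f hf
  have hXN : IsPSolvable p (X ⧸ N) :=
    Lib.PSolvable.IsPSolvable_of_surjective p hX (QuotientGroup.mk' N) (QuotientGroup.mk'_surjective N)
  have hY1 : pPrimeCore p (X ⧸ N) = ⊥ := by
    subst hNdef
    exact Lib.Cores.pPrimeCore_quotient_pPrimeCore p
  have hNp : (Nat.card N).Coprime p := by
    rw [hNdef]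
    exact Lib.Cores.pPrimeCore_coprime (G := X) p
  have hsurj : Function.Surjective (QuotientGroup.mk' N) := QuotientGroup.mk'_surjective N
  have e2 : (P : Subgroup X) ≃* (P.mapSurjective hsurj : Subgroup (X ⧸ N)) := by
    have hinj : Function.Injective ((QuotientGroup.mk' N).subgroupMap (P : Subgroup X)) := by
      rw [injective_iff_map_eq_one]
      rintro ⟨x, hx⟩ h
      have h1 : (QuotientGroup.mk' N) x = 1 := congrArg Subtype.val h
      have h2 : x ∈ N := by
        rwa [← MonoidHom.mem_ker, QuotientGroup.ker_mk'] at h1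
      apply Subtype.ext
      change x = 1
      obtain ⟨k, hk⟩ := P.2 ⟨x, hx⟩
      have h3 : x ^ p ^ k = 1 := by
        have := congrArg Subtype.val hk
        simpa using this
      have h4 : orderOf x ∣ p ^ k := orderOf_dvd_of_pow_eq_one h3
      have h5 : orderOf x ∣ Nat.card N := by
        have := orderOf_dvd_natCard (⟨x, h2⟩ : N)
        rwa [Subgroup.orderOf_mk] at this
      have h6 : Nat.Coprime (p ^ k) (Nat.card N) := Nat.Coprime.pow_left k hNp.symm
      have h7 := Nat.eq_one_of_dvd_coprimes h6 h4 h5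
      exact orderOf_eq_one_iff.1 h7
    exact MulEquiv.ofBijective _ ⟨hinj, MonoidHom.subgroupMap_surjective _ _⟩
  -- the quotient is not trivial
  have hnt : Nontrivial (X ⧸ N) := by
    have h1 : Nontrivial D := (Subgroup.nontrivial_iff_ne_bot _).2 hD1
    have h2 : Nontrivial (P.mapSurjective hsurj : Subgroup (X ⧸ N)) := (e.trans e2).symm.toEquiv.nontrivial
    obtain ⟨a, ha⟩ := exists_ne (1 : (P.mapSurjective hsurj : Subgroup (X ⧸ N)))
    exact ⟨(a : X ⧸ N), 1, fun h => ha (Subtype.ext h)⟩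
  -- the sectional rank
  have hrY : SectionalPRankLE p r ↥(pCore p (X ⧸ N)) := by
    refine sect_of_injective ((e.trans e2).symm.toMonoidHom.comp
      (Subgroup.inclusion (Lib.Cores.pCore_le_sylow (P.mapSurjective hsurj)))) ?_ hr
    exact (e.trans e2).symm.injective.comp (Subgroup.inclusion_injective _)
  have hcl := (s4533 hA p hXN hY1 r hrY).2
  -- representatives
  set R := {C : ConjClasses (X ⧸ N) // ∃ g : X ⧸ N, ConjClasses.mk g = C ∧ ¬ p ∣ orderOf g} with hR
  have hRf : Finite R := inferInstance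
  have : Fintype R := Fintype.ofFinite R
  have hrep : ∀ C : R, ∃ x : X, ConjClasses.mk (QuotientGroup.mk' N x) = C.1 := by
    intro C
    obtain ⟨g, hg, -⟩ := C.2
    obtain ⟨x, rfl⟩ := hsurj g
    exact ⟨x, hg⟩
  choose s hs using hrep
  have hbound := H642.SolvRank.blockRank_le (N := N) θ.2 hinv (p := p) (B := B')
    (fun χ hχ => (hmem χ).1 hχ) (ι := R) s (fun g hg => by
      have h1 : ¬ p ∣ orderOf (QuotientGroup.mk' N g) := fun h =>
        hg (h.trans (orderOf_map_dvd _ g))
      have h2 := hs ⟨ConjClasses.mk (QuotientGroup.mk' N g), _, rfl, h1⟩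
      obtain ⟨c, hc⟩ := isConj_iff.1 (ConjClasses.mk_eq_mk_iff_isConj.1 h2).symm
      obtain ⟨x, rfl⟩ := hsurj c
      rw [← map_mul, ← map_inv, ← map_mul] at hc
      set y := s ⟨ConjClasses.mk (QuotientGroup.mk' N g), _, rfl, h1⟩ with hy
      have h3 : x * g * x⁻¹ * y⁻¹ ∈ N := by
        rw [← QuotientGroup.ker_mk' N, MonoidHom.mem_ker, map_mul, hc, ← map_mul, mul_inv_cancel,
          map_one]
      exact ⟨⟨ConjClasses.mk (QuotientGroup.mk' N g), _, rfl, h1⟩, ⟨x * g * x⁻¹ * y⁻¹, h3⟩, x, by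
        rw [← hy]; simp⟩)
  rw [← Nat.card_eq_fintype_card] at hbound
  exact hbound.trans_lt hcl

end block

end Cfsg.Agent.H126.KG
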